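import Cfsg.Agent.H25.LB.F4W
import Cfsg.Agent.H40.PV.Ell

/-!
# `F₄(q)`, `p = 7`: type preserving automorphisms do not fuse the elements of order 7 of `P₀₁₂` and `P₁₂₃`
(helper743; piece F4 (c) of the row `F₄(q)` of S4879)

* `exists_ell` : an element of a standard parabolic subgroup has an elliptic conjugate;
* `not_both` : no element of order `7` of `P₁₂₃` is conjugate into `P₀₁₂`;
* `no_fuse` : the pair `x`, `y`.
-/

set_option autoImplicit false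
set_option linter.unusedSectionVars false

namespace Cfsg.Agent.H743.LB

open CoxeterSystem Cfsg.Agent.ChevalleyStructure.CoxeterGeom Cfsg.Agent.Tits.Roots Cfsg.Agent.Tits.Core
  Cfsg.Agent.Nodes.Reps Cfsg.Agent.Nodes.BNOf Cfsg.Agent.Nodes.StabComb Cfsg.Agent.Nodes.Bruhat
  Cfsg.Agent.Nodes.LeviDec Cfsg.Agent.ChevalleyStructure.CoxeterGeomTypes Cfsg.Lie Cfsg.Agent.H35.ExcIdx
  Cfsg.Agent.Nodes.RGDChev Cfsg.Agent.ChevalleyStructure.NPerm Cfsg.Agent.H40.PV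

/-- an element of a standard parabolic subgroup has an elliptic conjugate -/
theorem exists_ell {I W Y : Type*} [Fintype I] [DecidableEq I] [Group W] [Group Y] {M : CoxeterMatrix I}
    {cs : CoxeterSystem M W} {A : I → I → ℤ} {h : IsCartan M A} {T : Subgroup Y} {X : (I → ℤ) → Subgroup Y}
    {J : Set I} {y : Y} (hy : y ∈ PJ cs h T X J) : ∃ K ⊆ J, ∃ g : Y, Ell cs h T X K (g⁻¹ * y * g) := by
  classical
  have hex : ∃ m : ℕ, ∃ K ⊆ J, K.ncard = m ∧ ∃ g : Y, g⁻¹ * y * g ∈ PJ cs h T X K :=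
    ⟨_, J, subset_rfl, rfl, 1, by simpa using hy⟩
  obtain ⟨K, hK, hm, g, hg⟩ := Nat.find_spec hex
  refine ⟨K, hK, g, hg, fun a ha K' hK' hak => ?_⟩
  refine Set.eq_of_subset_of_ncard_le hK' ?_ (Set.toFinite _)
  rw [hm]
  refine Nat.find_min' hex ⟨K', hK'.trans hK, rfl, g * a, ?_⟩
  have e : (g * a)⁻¹ * y * (g * a) = a⁻¹ * (g⁻¹ * y * g) * a := by group
  rw [e]
  exact hak

universe u

variable {K : Type u} [Field K] [Finite K]
  (h7 : orderOf ((Nat.card K : ℕ) : ZMod 7) = 3 ∨ orderOf ((Nat.card K : ℕ) : ZMod 7) = 6)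
  {W : Type*} [Group W] (cs : CoxeterSystem CoxeterMatrix.F₄ W)

include h7

/-- no element of order `7` of `P₁₂₃` is conjugate into `P₀₁₂` -/
theorem not_both {y t : ↥(chevF4.group K)} (ho : orderOf y = 7)
    (hy : y ∈ PJ cs hpF4.isCartan (TT chevF4 K) (XX chevF4 4 K) {1, 2, 3})
    (ht : t⁻¹ * y * t ∈ PJ cs hpF4.isCartan (TT chevF4 K) (XX chevF4 4 K) {0, 1, 2}) : False := by
  classical
  have : Fintype K := Fintype.ofFinite K
  obtain ⟨r, hrc⟩ := CharP.exists K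
  have hrp : Fact r.Prime := ⟨CharP.char_is_prime K r⟩
  have hfin := finite_W hpF4 cs
  have R := rgd (K := K) hpF4 cs r
  obtain ⟨L, hL, g, hE⟩ := exists_ell hy
  have h1 : (g⁻¹ * t)⁻¹ * (g⁻¹ * y * g) * (g⁻¹ * t) = t⁻¹ * y * t := by group
  obtain ⟨L', hL', w, -, h2, -⟩ := hE.exists_conj R (GG_eq_top hpF4 K cs) (g := g⁻¹ * t) (by rw [h1]; exact ht)
  refine H25.LB.not_dvd_of_map h7 cs hL hL' h2 ?_
  have h3 : orderOf (⟨_, hE.1⟩ : ↥(PJ cs hpF4.isCartan (TT chevF4 K) (XX chevF4 4 K) L)) = 7 := by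
    rw [Subgroup.orderOf_mk, ← ho]
    have h4 : g⁻¹ * y * g = MulAut.conj g⁻¹ y := by rw [MulAut.conj_apply, inv_inv]
    rw [h4]
    exact MulEquiv.orderOf_eq _ _
  rw [← h3]
  exact orderOf_dvd_natCard _

/-- elements of order `7` of the two parabolic subgroups -/
theorem exists_pair : ∃ x y : ↥(chevF4.group K), orderOf x = 7 ∧ orderOf y = 7 ∧
    x ∈ PJ cs hpF4.isCartan (TT chevF4 K) (XX chevF4 4 K) {0, 1, 2} ∧
    y ∈ PJ cs hpF4.isCartan (TT chevF4 K) (XX chevF4 4 K) {1, 2, 3} := by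
  have : Fact (Nat.Prime 7) := ⟨by norm_num⟩
  have hfin : Finite ↥(chevF4.group K) := inferInstance
  obtain ⟨x, hx⟩ := exists_prime_orderOf_dvd_card' 7 (H25.LB.dvd_card_012 h7 cs)
  obtain ⟨y, hy⟩ := exists_prime_orderOf_dvd_card' 7 (H25.LB.dvd_card_123 h7 cs)
  exact ⟨x, y, by rw [Subgroup.orderOf_coe]; exact hx, by rw [Subgroup.orderOf_coe]; exact hy, x.2, y.2⟩

/-- **F4 (c)**: `H` a group of automorphisms which map `P₀₁₂` to conjugates -/
theorem no_fuse (H : Subgroup (MulAut ↥(chevF4.group K)))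
    (hH : ∀ φ ∈ H, ∃ s, ∀ x, x ∈ PJ cs hpF4.isCartan (TT chevF4 K) (XX chevF4 4 K) {0, 1, 2} ↔
      s⁻¹ * φ x * s ∈ PJ cs hpF4.isCartan (TT chevF4 K) (XX chevF4 4 K) {0, 1, 2}) :
    ∃ x y : ↥(chevF4.group K), orderOf x = 7 ∧ orderOf y = 7 ∧ ∀ φ ∈ H, φ x ≠ y := by
  obtain ⟨x, y, hx, hy, hx', hy'⟩ := exists_pair h7 cs
  refine ⟨x, y, hx, hy, fun φ hφ e => ?_⟩
  obtain ⟨s, hs⟩ := hH φ hφ
  have h1 := (hs x).1 hx'
  rw [e] at h1
  exact not_both h7 cs hy hy' h1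

end Cfsg.Agent.H743.LB
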